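import Mathlib
import Cfsg.Agent.Fischer160.Inherit
import Cfsg.Agent.SignalizersComponents.ComponentExists
import Cfsg.Agent.SignalizersComponents.LayerBasic
import Cfsg.Prelude.Def_CaseTheorems

set_option autoImplicit false
set_option linter.style.haveILetI false

/-!
# General facts on Fischer groups

Nontrivial normal subgroups contain the derived subgroup; perfect ones are simple; the layer is the
derived subgroup; criteria for `⟨D_x⟩` to be perfect.
-/

namespace Cfsg.Agent.H810.Basic

open Cfsg Cfsg.Agent.SporadicStructure.FischerSpace Cfsg.Agent.SporadicStructure.FischerPrimitive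
open Cfsg.Agent.Fischer160.Inherit
open scoped commutatorElement

variable {G : Type*} [Group G] {D : Set G}

/-- `x, y ∈ D` conjugate under `N` -/
def nrel (D : Set G) (N : Subgroup G) (x y : G) : Prop := x ∈ D ∧ ∃ n ∈ N, n * x * n⁻¹ = y

theorem invEquiv_nrel (h : FData D) {N : Subgroup G} (hN : N.Normal) : InvEquiv D (nrel D N) where
  mem_left := fun h1 => h1.1
  refl := fun hx => ⟨hx, 1, N.one_mem, by group⟩
  symm := by
    rintro x y ⟨hx, n, hn, rfl⟩
    exact ⟨h.conj n x hx, n⁻¹, N.inv_mem hn, by group⟩
  trans := by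
    rintro x y z ⟨hx, n, hn, rfl⟩ ⟨-, m, hm, rfl⟩
    exact ⟨hx, m * n, N.mul_mem hm hn, by group⟩
  conj := by
    rintro g x y ⟨hx, n, hn, rfl⟩
    exact ⟨h.conj g x hx, g * n * g⁻¹, hN.conj_mem n hn g, by group⟩

/-- a nontrivial normal subgroup of a Fischer group contains the derived subgroup -/
theorem commutator_le_of_normal [Finite G] (F : FGroup D) {N : Subgroup G} (hN : N.Normal)
    (hne : N ≠ ⊥) : commutator G ≤ N := by
  have h := F.fd
  rcases primitive h F.sol F.perf (invEquiv_nrel h hN) with h1 | h1
  · exfalso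
    apply hne
    rw [eq_bot_iff, ← center_eq_bot F.sol]
    intro n hn
    apply h.mem_center_of_forall_commute
    intro d hd
    have h2 := h1 d (n * d * n⁻¹) ⟨hd, n, hn, rfl⟩
    show n * d = d * n
    conv_rhs => rw [h2]
    group
  · refine (commutator_le_prods h.conj h.sq h.gen h.nonempty).trans ?_
    rw [prods, Subgroup.closure_le]
    rintro _ ⟨e, he, f, hf, rfl⟩
    obtain ⟨-, n, hn, rfl⟩ := h1 e he f hf
    have e1 : e * (n * e * n⁻¹) = (e * n * e⁻¹) * n⁻¹ := by
      rw [h.inv_eq he]; group
    rw [SetLike.mem_coe, e1]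
    exact N.mul_mem (hN.conj_mem n hn e) (N.inv_mem hn)

/-- a perfect Fischer group is simple -/
theorem isSimple_of_perfect [Finite G] (F : FGroup D) (hp : commutator G = ⊤) :
    IsSimpleGroup G := by
  obtain ⟨d, hd⟩ := F.fd.nonempty
  haveI : Nontrivial G := ⟨⟨d, 1, F.fd.ne_one d hd⟩⟩
  refine ⟨fun N hN => ?_⟩
  by_cases hb : N = ⊥
  · exact Or.inl hb
  · right
    have := commutator_le_of_normal F hN hb
    rw [hp] at this
    exact top_le_iff.1 this

/-- the derived subgroup has index at most two -/
theorem index_commutator_dvd (h : FData D) : (commutator G).index ∣ 2 := by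
  obtain ⟨d, hd⟩ := h.nonempty
  have hgen : Subgroup.closure {(d : G ⧸ commutator G)} = ⊤ := by
    have h1 : Subgroup.closure D = ⊤ := h.gen
    have h2 : (Subgroup.closure D).map (QuotientGroup.mk' (commutator G)) = ⊤ := by
      rw [h1]
      exact Subgroup.map_top_of_surjective _ (QuotientGroup.mk'_surjective _)
    rw [MonoidHom.map_closure] at h2
    rw [eq_top_iff, ← h2, Subgroup.closure_le]
    rintro _ ⟨e, he, rfl⟩
    obtain ⟨g, rfl⟩ := h.single d hd e he
    have h3 : (QuotientGroup.mk' (commutator G)) (g * d * g⁻¹) = (d : G ⧸ commutator G) := by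
      have : ((g * d * g⁻¹ : G) : G ⧸ commutator G) = (d : G ⧸ commutator G) := by
        rw [QuotientGroup.eq]
        have e1 : (g * d * g⁻¹)⁻¹ * d = ⁅g, d⁻¹⁆ := by
          rw [commutatorElement_def]; group
        rw [e1, commutator_def]
        exact Subgroup.commutator_mem_commutator trivial trivial
      exact this
    rw [h3]
    exact Subgroup.subset_closure rfl
  have hz : Subgroup.zpowers (d : G ⧸ commutator G) = ⊤ := by
    rw [Subgroup.zpowers_eq_closure]; exact hgen
  rw [Subgroup.index_eq_card, ← Subgroup.card_top (G := G ⧸ commutator G), ← hz,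
    Nat.card_zpowers]
  apply orderOf_dvd_of_pow_eq_one
  rw [pow_two, ← QuotientGroup.mk_mul, h.sq d hd]
  rfl

theorem index_commutator_eq_two (h : FData D) (hp : commutator G ≠ ⊤) :
    (commutator G).index = 2 := by
  rcases (Nat.dvd_prime Nat.prime_two).1 (index_commutator_dvd h) with h1 | h1
  · exact absurd (Subgroup.index_eq_one.1 h1) hp
  · exact h1

/-- **the layer of a Fischer group is its derived subgroup** -/
theorem layer_eq [Finite G] (F : FGroup D) : Cfsg.layer G = commutator G := by
  apply le_antisymm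
  · refine sSup_le fun K hK => ?_
    have h1 : commutator K = ⊤ := by
      have := hK.2.1
      exact Group.isPerfect_def.1 this
    intro k hk
    have h2 : (⟨k, hk⟩ : K) ∈ commutator K := by rw [h1]; trivial
    have h3 : (commutator K).map K.subtype ≤ commutator G := by
      rw [commutator_def, Subgroup.map_commutator, commutator_def]
      exact Subgroup.commutator_mono le_top le_top
    exact h3 ⟨⟨k, hk⟩, h2, rfl⟩
  · have hN : (Cfsg.layer G).Normal :=
      Cfsg.Agent.SignalizersComponents.LayerBasic.layer_normal G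
    apply commutator_le_of_normal F hN
    intro hb
    have h1 := Cfsg.Agent.SignalizersComponents.ComponentExists.centralizer_fitting_le_of_layer_eq_bot
      hb
    have h2 : Cfsg.fittingSubgroup G = ⊥ := by
      have hnil := Cfsg.Agent.Lib.Cores.fittingSubgroup_isNilpotent (G := G)
      exact F.sol _ Cfsg.Agent.Lib.Cores.fittingSubgroup_normal inferInstance
    rw [h2] at h1
    obtain ⟨d, hd⟩ := F.fd.nonempty
    apply F.fd.ne_one d hd
    rw [← Subgroup.mem_bot]
    apply h1
    rw [Subgroup.mem_centralizer_iff]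
    rintro x hx
    rw [SetLike.mem_coe, Subgroup.mem_bot] at hx
    rw [hx, one_mul, mul_one]

section Loc

variable {x : G}

/-- products of an even number of members of `D_x` lie in the derived subgroup of `⟨D_x⟩` -/
theorem mem_commutator_of_list [Finite G] (F : FGroup D) (hx : x ∈ D) (l : List G)
    (hl : ∀ b ∈ l, b ∈ Dx D x) (hev : Even l.length)
    (z : HH D x) (hz : (z : G) = l.prod) : z ∈ commutator (HH D x) := by
  have key : ∀ a b : HH D x, a ∈ E D x → b ∈ E D x → Abelianization.of a = Abelianization.of b := by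
    intro a b ha hb
    obtain ⟨g, hg⟩ := single_E F hx ha hb
    rw [← hg, map_mul, map_mul, map_inv, mul_comm (Abelianization.of g), mul_inv_cancel_right]
  have R := rk_of_FGroup F
  obtain ⟨e0, he0⟩ : (E D x).Nonempty := by
    obtain ⟨y, hy, hyx, hc⟩ := R.exPerp x hx
    exact ⟨⟨y, mem_HH_of ⟨hy, hyx, hc⟩⟩, ⟨hy, hyx, hc⟩⟩
  have hsq : Abelianization.of e0 * Abelianization.of e0 = 1 := by
    rw [← map_mul, sq_E F.fd he0, map_one]
  have hprod : ∀ m : List G, (∀ b ∈ m, b ∈ Dx D x) → ∀ z : HH D x, (z : G) = m.prod →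
      Abelianization.of z = Abelianization.of e0 ^ m.length := by
    intro m
    induction m with
    | nil =>
      intro _ z hz
      have : z = 1 := Subtype.ext (by rw [hz, List.prod_nil]; rfl)
      rw [this, map_one, List.length_nil, pow_zero]
    | cons b m ih =>
      intro hm z hz
      have hb := hm b List.mem_cons_self
      let b' : HH D x := ⟨b, mem_HH_of hb⟩
      have h1 := ih (fun c hc => hm c (List.mem_cons_of_mem _ hc)) (b'⁻¹ * z) (by
        rw [Subgroup.coe_mul, Subgroup.coe_inv, hz, List.prod_cons]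
        show b⁻¹ * (b * m.prod) = m.prod
        group)
      have h2 : z = b' * (b'⁻¹ * z) := by group
      rw [h2, map_mul, h1, key b' e0 hb he0, List.length_cons, pow_succ']
  have h1 := hprod l hl z hz
  obtain ⟨k, hk⟩ := hev
  rw [hk, ← two_mul, pow_mul, pow_two, hsq, one_pow] at h1
  have h2 : z ∈ (Abelianization.of : HH D x →* Abelianization (HH D x)).ker := h1
  rwa [Abelianization.ker_of] at h2

/-- if `⟨D_x⟩ / Z` is perfect, the centre is in `{1, x}` and `x` is a product of an even number
of members of `D_x`, then `⟨D_x⟩` is perfect -/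
theorem perfect_HH [Finite G] (F : FGroup D) (hx : x ∈ D)
    (hcen : ∀ z : HH D x, z ∈ Subgroup.center (HH D x) → (z : G) = 1 ∨ (z : G) = x)
    (l : List G) (hl : ∀ b ∈ l, b ∈ Dx D x) (hev : Even l.length) (hp : l.prod = x)
    (hK : commutator (KK D x) = ⊤) : commutator (HH D x) = ⊤ := by
  rw [eq_top_iff]
  intro g _
  have h1 : (QuotientGroup.mk' (Subgroup.center (HH D x))) g ∈ commutator (KK D x) := by
    rw [hK]; trivial
  rw [commutator_def, ← Subgroup.map_top_of_surjective _
    (QuotientGroup.mk'_surjective (Subgroup.center (HH D x))), ← Subgroup.map_commutator,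
    ← commutator_def] at h1
  obtain ⟨k, hk, hkg⟩ := h1
  have h2 : k⁻¹ * g ∈ Subgroup.center (HH D x) := by
    rw [← QuotientGroup.eq]
    exact hkg
  have h3 : k⁻¹ * g ∈ commutator (HH D x) := by
    rcases hcen _ h2 with h3 | h3
    · have : k⁻¹ * g = 1 := Subtype.ext h3
      rw [this]; exact one_mem _
    · exact mem_commutator_of_list F hx l hl hev _ (by rw [h3, hp])
  have := mul_mem hk h3
  rwa [mul_inv_cancel_left] at this

end Loc

end Cfsg.Agent.H810.Basic
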